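import Cfsg.Agent.TitsMultiplier.Checks
import Cfsg.Agent.Schur.OddSwap

/-!
The Schur multiplier of the Tits group is trivial.
-/

set_option autoImplicit false
set_option maxRecDepth 20000

namespace CfsgLib.TitsMultiplier

open Cfsg.Lie CfsgLib.Chevalley CfsgLib.TwistedLie CfsgLib.TwistedLie.F4 CfsgLib.TitsInvolutions
open CfsgLib.Schur
open scoped commutatorElement

local notation "K" => ZMod 2

variable {Γ : Type} [Group Γ] [Finite Γ] {σ : Γ →* ↥T}

theorem not_two_dvd (hσ : Cfsg.IsStemExtension σ) : ¬ 2 ∣ Nat.card σ.ker := by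
  let g : ℕ → ↥T := fun i => elT (certPGens.getD i []) certP_inClass certP_flag
  have hg : ∀ i, val (g i) = el K (flat (certPGens.getD i [])) := fun i => rfl
  have hrel := rel_of_check val val_injective certPGens (fun w hw => (certP_class w hw).1) g hg
    certPRules certP_rel
  have hc := card_closure_pow val certP (by
      have h := certP_ok
      simp only [TwoCert.ok, Bool.and_eq_true] at h
      exact h.1.2) certPGens certPOrbits g (fun i => flat_range certP_inClass) (fun i _ => hg i)
    (fun r hr => hrel r (lt_of_lt_of_le hr certP_len)) certP_sep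
  exact TwoCert.not_two_dvd_card_ker hσ certP_ok g hrel (hc 11 le_rfl)
    (not_dvd_index (m := 3 ^ 3 * 5 ^ 2 * 13) _ (hc 11 le_rfl)
      (by norm_num [show certP.n = 11 from rfl]) (by norm_num))

/-- An element of the Tits group given by one of the words of a list. -/
theorem exists_elT {ws : List (List ℕ)} (h : ∀ w ∈ ws, InClass w ∧ wflag w = false) (i : ℕ) :
    ∃ x : ↥T, val x = el K (flat (ws.getD i [])) := by
  rcases lt_or_ge i ws.length with hk | hk
  · rw [List.getD_eq_getElem _ _ hk]
    exact ⟨elT _ (h _ (List.getElem_mem hk)).1 (h _ (List.getElem_mem hk)).2, rfl⟩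
  · rw [List.getD_eq_default _ _ hk]
    exact ⟨1, by rw [map_one]; exact (el_nil K).symm⟩

theorem val_pow {x : ↥T} {w : List ℕ} (hx : val x = el K w) : ∀ n, val (x ^ n) = el K (rep n w)
  | 0 => by rw [pow_zero, map_one]; exact (el_nil K).symm
  | n + 1 => by rw [pow_succ', map_mul, val_pow hx n, hx, ← el_append]; rfl

theorem val_comm {x y : ↥T} {u w : List ℕ} (hx : val x = el K u) (hy : val y = el K w) :
    val ⁅x, y⁆ = el K (commW u w) := by
  rw [commutatorElement_def, map_mul, map_mul, map_mul, map_inv, map_inv, hx, hy, ← el_reverse,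
    ← el_reverse, ← el_append, ← el_append, ← el_append]
  rfl

theorem eq_of_check {x y : ↥T} {u w : List ℕ} (hx : val x = el K u) (hy : val y = el K w)
    (hu : InRange u) (hw : InRange w) (h : sameP u w = true) : x = y :=
  val_injective (by rw [hx, hy]; exact el_eq_of_sameP hu hw h)

theorem inRange_nil : InRange [] := by simp [InRange]

theorem inRange_rep {w : List ℕ} (hw : InRange w) : ∀ n, InRange (rep n w)
  | 0 => inRange_nil
  | n + 1 => inRange_append hw (inRange_rep hw n)

theorem inRange_comm {u w : List ℕ} (hu : InRange u) (hw : InRange w) : InRange (commW u w) :=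
  inRange_append (inRange_append (inRange_append hu hw) (inRange_reverse hu)) (inRange_reverse hw)

theorem not_five_dvd (hσ : Cfsg.IsStemExtension σ) : ¬ 5 ∣ Nat.card σ.ker := by
  haveI : Fact (Nat.Prime 5) := ⟨by norm_num⟩
  obtain ⟨a, ha⟩ := exists_elT word_class.1 0
  obtain ⟨b, hb⟩ := exists_elT word_class.1 1
  obtain ⟨g, hg⟩ := exists_elT word_class.1 2
  change val a = el K (fiveRoots 0) at ha
  change val b = el K (fiveRoots 1) at hb
  change val g = el K (fiveRoots 2) at hg
  have hr : ∀ i, InRange (fiveRoots i) := fun i =>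
    flat_range (getD_inClass (fun w hw => (word_class.1 w hw).1) i)
  obtain ⟨r1, r2, r3, r4⟩ := five_rel
  have ha5 : a ^ 5 = 1 := eq_of_check (val_pow ha 5) (by rw [map_one]; exact (el_nil K).symm)
    (inRange_rep (hr 0) 5) inRange_nil r1
  have hab : Commute a b := eq_of_check (by rw [map_mul, ha, hb, ← el_append])
    (by rw [map_mul, ha, hb, ← el_append]) (inRange_append (hr 0) (hr 1))
    (inRange_append (hr 1) (hr 0)) r2
  have hga : g * a * g⁻¹ = b := mul_inv_eq_iff_eq_mul.2 <|
    eq_of_check (by rw [map_mul, hg, ha, ← el_append]) (by rw [map_mul, hg, hb, ← el_append])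
      (inRange_append (hr 2) (hr 0)) (inRange_append (hr 1) (hr 2)) r3
  have hgb : g * b * g⁻¹ = a := mul_inv_eq_iff_eq_mul.2 <|
    eq_of_check (by rw [map_mul, hg, hb, ← el_append]) (by rw [map_mul, hg, ha, ← el_append])
      (inRange_append (hr 2) (hr 1)) (inRange_append (hr 0) (hr 2)) r4
  have hcard : Nat.card (Subgroup.closure ({a, b} : Set ↥T)) = 25 := by
    refine card_closure_eq val val_injective [fiveRoots 0, fiveRoots 1] fiveList 0
      (fun x hx => ?_) (fun w hw => ?_) (fun w hw => ?_) ⟨rfl, by decide +kernel⟩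
      (fun w hw => ?_) five_mul (by norm_num) (by decide +kernel)
    · rcases hx with rfl | rfl
      · exact ⟨_, by simp, ha⟩
      · exact ⟨_, by simp, hb⟩
    · simp only [List.mem_cons, List.not_mem_nil, or_false] at hw
      rcases hw with rfl | rfl
      · exact ⟨hr 0, a, by simp, ha⟩
      · exact ⟨hr 1, b, by simp, hb⟩
    · simp only [fiveList, List.mem_flatMap, List.mem_map] at hw
      obtain ⟨i, -, j, -, rfl⟩ := hw
      exact inRange_append (inRange_rep (hr 0) i) (inRange_rep (hr 1) j)
    · simp only [fiveList, List.mem_flatMap, List.mem_map] at hw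
      obtain ⟨i, -, j, -, rfl⟩ := hw
      refine ⟨a ^ i * b ^ j, mul_mem (pow_mem (Subgroup.subset_closure (by simp)) i)
        (pow_mem (Subgroup.subset_closure (by simp)) j), ?_⟩
      rw [map_mul, val_pow ha, val_pow hb, ← el_append]
  exact OddSwap.not_dvd_of_swap hσ (by norm_num) (Subgroup.closure {a, b})
    (not_dvd_index (m := 2 ^ 11 * 3 ^ 3 * 13) _ hcard (by norm_num) (by norm_num)) le_rfl ha5 hab hga hgb

theorem not_three_dvd (hσ : Cfsg.IsStemExtension σ) : ¬ 3 ∣ Nat.card σ.ker := by
  obtain ⟨a, ha⟩ := exists_elT word_class.2.1 0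
  obtain ⟨b, hb⟩ := exists_elT word_class.2.1 1
  obtain ⟨g, hg⟩ := exists_elT word_class.2.1 2
  change val a = el K (threeRoots 0) at ha
  change val b = el K (threeRoots 1) at hb
  change val g = el K (threeRoots 2) at hg
  have hr : ∀ i, InRange (threeRoots i) := fun i =>
    flat_range (getD_inClass (fun w hw => (word_class.2.1 w hw).1) i)
  have hrc := inRange_comm (hr 0) (hr 1)
  have hc := val_comm ha hb
  obtain ⟨r1, r2, r3, r4, r5, r6, r7⟩ := three_rel
  have hone : val (1 : ↥T) = el K [] := by rw [map_one]; exact (el_nil K).symm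
  have ha3 : a ^ 3 = 1 := eq_of_check (val_pow ha 3) hone (inRange_rep (hr 0) 3) inRange_nil r1
  have hb3 : b ^ 3 = 1 := eq_of_check (val_pow hb 3) hone (inRange_rep (hr 1) 3) inRange_nil r2
  have hca : Commute ⁅a, b⁆ a := eq_of_check (by rw [map_mul, hc, ha, ← el_append])
    (by rw [map_mul, hc, ha, ← el_append]) (inRange_append hrc (hr 0))
    (inRange_append (hr 0) hrc) r3
  have hcb : Commute ⁅a, b⁆ b := eq_of_check (by rw [map_mul, hc, hb, ← el_append])
    (by rw [map_mul, hc, hb, ← el_append]) (inRange_append hrc (hr 1))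
    (inRange_append (hr 1) hrc) r4
  have hne : ⁅a, b⁆ ≠ 1 := fun h => el_ne_of_sameAll hrc inRange_nil r5 (by rw [← hc, h, hone])
  have hga : g * a * g⁻¹ = a⁻¹ := mul_inv_eq_iff_eq_mul.2 <|
    eq_of_check (by rw [map_mul, hg, ha, ← el_append])
      (by rw [map_mul, map_inv, hg, ha, ← el_reverse, ← el_append])
      (inRange_append (hr 2) (hr 0)) (inRange_append (inRange_reverse (hr 0)) (hr 2)) r6
  have hgb : g * b * g⁻¹ = b⁻¹ := mul_inv_eq_iff_eq_mul.2 <|
    eq_of_check (by rw [map_mul, hg, hb, ← el_append])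
      (by rw [map_mul, map_inv, hg, hb, ← el_reverse, ← el_append])
      (inRange_append (hr 2) (hr 1)) (inRange_append (inRange_reverse (hr 1)) (hr 2)) r7
  have hcard : Nat.card (Subgroup.closure ({a, b} : Set ↥T)) = 27 := by
    refine le_antisymm (card_closure_le ha3 hb3 hca hcb) ?_
    refine le_trans (by decide +kernel : 27 ≤ threeList.length)
      (le_card val _ threeList 1 (fun w hw => ?_) (fun w hw => ?_) (by norm_num) (by decide +kernel))
    · simp only [threeList, List.mem_flatMap, List.mem_map] at hw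
      obtain ⟨i, -, j, -, l, -, rfl⟩ := hw
      exact inRange_append (inRange_append (inRange_rep (hr 0) i) (inRange_rep (hr 1) j))
        (inRange_rep hrc l)
    · simp only [threeList, List.mem_flatMap, List.mem_map] at hw
      obtain ⟨i, -, j, -, l, -, rfl⟩ := hw
      have hA : a ∈ Subgroup.closure ({a, b} : Set ↥T) := Subgroup.subset_closure (by simp)
      have hB : b ∈ Subgroup.closure ({a, b} : Set ↥T) := Subgroup.subset_closure (by simp)
      refine ⟨a ^ i * b ^ j * ⁅a, b⁆ ^ l, mul_mem (mul_mem (pow_mem hA i) (pow_mem hB j))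
        (pow_mem ((Subgroup.closure _).commutator_le_self
          (Subgroup.commutator_mem_commutator hA hB)) l), ?_⟩
      rw [map_mul, map_mul, val_pow ha, val_pow hb, val_pow hc, ← el_append, ← el_append]
  exact ThreeGroups.not_three_dvd_of_invert hσ (Subgroup.closure {a, b})
    (not_dvd_index (m := 2 ^ 11 * 5 ^ 2 * 13) _ hcard (by norm_num) (by norm_num)) le_rfl ha3 hb3 hca hcb
    hne hga hgb

theorem not_thirteen_dvd (hσ : Cfsg.IsStemExtension σ) : ¬ 13 ∣ Nat.card σ.ker := by
  haveI : Fact (Nat.Prime 13) := ⟨by norm_num⟩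
  obtain ⟨r1, r2⟩ := thirteen_rel
  obtain ⟨-, -, hw, hf⟩ := word_class
  set x := elT thirteenWord hw hf
  have hone : val (1 : ↥T) = el K [] := by rw [map_one]; exact (el_nil K).symm
  have hx : orderOf x = 13 := orderOf_eq_prime
    (eq_of_check (val_pow (val_elT _ hw hf) 13) hone (inRange_rep (flat_range hw) 13) inRange_nil r1)
    fun h => el_ne_of_sameAll (flat_range hw) inRange_nil r2
      (by rw [← val_elT _ hw hf, show elT thirteenWord hw hf = 1 from h, hone])
  exact not_dvd_card_ker_of_isCyclic hσ (Subgroup.zpowers x)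
    (not_dvd_index (n := 13) (m := 2 ^ 11 * 3 ^ 3 * 5 ^ 2) _ (by rw [Nat.card_zpowers, hx])
      (by norm_num) (by norm_num))

/-- Stem extensions of the Tits group are trivial. -/
theorem multiplier_trivial : Cfsg.HasCyclicSchurMultiplier ↥T 1 := by
  refine hasCyclicSchurMultiplier_one fun Γ _ _ σ hσ p hp => ?_
  by_cases hd : p ∣ Nat.card ↥T
  · rw [card_T] at hd
    rcases hp.dvd_mul.1 hd with h | h
    · rcases hp.dvd_mul.1 h with h | h
      · rcases hp.dvd_mul.1 h with h | h
        · rw [(Nat.prime_dvd_prime_iff_eq hp Nat.prime_two).1 (hp.dvd_of_dvd_pow h)]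
          exact not_two_dvd hσ
        · rw [(Nat.prime_dvd_prime_iff_eq hp Nat.prime_three).1 (hp.dvd_of_dvd_pow h)]
          exact not_three_dvd hσ
      · rw [(Nat.prime_dvd_prime_iff_eq hp Nat.prime_five).1 (hp.dvd_of_dvd_pow h)]
        exact not_five_dvd hσ
    · rw [(Nat.prime_dvd_prime_iff_eq hp (by norm_num : Nat.Prime 13)).1 h]
      exact not_thirteen_dvd hσ
  · haveI : Fact p.Prime := ⟨hp⟩
    haveI : IsCyclic (⊥ : Subgroup ↥T) := inferInstance
    exact not_dvd_card_ker_of_isCyclic hσ ⊥ (by rwa [Subgroup.index_bot])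

end CfsgLib.TitsMultiplier
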