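import Cfsg.Agent.TitsMultiplier.Sylow

/-!
The computations behind the Schur multiplier of the Tits group.
-/

set_option autoImplicit false
set_option maxRecDepth 20000

namespace CfsgLib.TitsMultiplier

open Cfsg.Lie CfsgLib.Chevalley CfsgLib.TwistedLie CfsgLib.TwistedLie.F4 CfsgLib.TitsInvolutions
open CfsgLib.Schur.TwoCert (evalW evalW_nil evalW_cons)

local notation "K" => ZMod 2

/-- The root word of a word in the generators. -/
def unfoldW (gs : List (List ℕ)) : List ℕ → List ℕ
  | [] => []
  | k :: w => flat (gs.getD k []) ++ unfoldW gs w

/-- The relations of a certificate hold. -/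
def relB (gs : List (List ℕ)) (rules : List (List ℕ × List ℕ)) : Bool :=
  rules.all fun r => sameP (unfoldW gs r.1) (unfoldW gs r.2)

theorem getD_inClass {gs : List (List ℕ)} (h : ∀ w ∈ gs, InClass w) (k : ℕ) :
    InClass (gs.getD k []) := by
  rcases lt_or_ge k gs.length with hk | hk
  · rw [List.getD_eq_getElem _ _ hk]; exact h _ (List.getElem_mem hk)
  · rw [List.getD_eq_default _ _ hk]; simp [InClass]

theorem rel_of_check {X : Type*} [Group X] (ι : X →* GL chevF4.Idx K) (hι : Function.Injective ι)
    (gs : List (List ℕ)) (hgs : ∀ w ∈ gs, InClass w) (g : ℕ → X)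
    (hg : ∀ i, ι (g i) = el K (flat (gs.getD i [])))
    (rules : List (List ℕ × List ℕ)) (h : relB gs rules = true) :
    ∀ r < rules.length, evalW g (rules.getD r ([], [])).1 = evalW g (rules.getD r ([], [])).2 := by
  have hrange : ∀ w, InRange (unfoldW gs w) := by
    intro w
    induction w with
    | nil => simp [unfoldW, InRange]
    | cons k w ih => exact inRange_append (flat_range (getD_inClass hgs k)) ih
  have hev : ∀ w, ι (evalW g w) = el K (unfoldW gs w) := by
    intro w
    induction w with
    | nil => rw [evalW_nil, map_one]; exact (el_nil K).symm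
    | cons k w ih => rw [evalW_cons, map_mul, hg, ih, ← el_append]; rfl
  intro r hr
  refine hι ?_
  rw [hev, hev]
  simp only [relB, List.all_eq_true] at h
  refine el_eq_of_sameP (hrange _) (hrange _) ?_
  rw [List.getD_eq_getElem _ _ hr]
  exact h _ (List.getElem_mem hr)

theorem certP_class : ∀ w ∈ certPGens, InClass w ∧ wflag w = false := by decide +kernel

theorem certP_ok : CfsgLib.Schur.TwoCert.ok certP = true := by decide +kernel

theorem certP_rel : relB certPGens certPRules = true := by decide +kernel

theorem certP_sep : ∀ k < 11, sepB certPGens certPOrbits k = true := by decide +kernel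

theorem certP_len : certP.picks.length ≤ certPRules.length := by decide +kernel

theorem certP_inClass {i : ℕ} : InClass (certPGens.getD i []) :=
  getD_inClass (fun w hw => (certP_class w hw).1) i

theorem certP_flag {i : ℕ} : wflag (certPGens.getD i []) = false := by
  rcases lt_or_ge i certPGens.length with hk | hk
  · rw [List.getD_eq_getElem _ _ hk]; exact (certP_class _ (List.getElem_mem hk)).2
  · rw [List.getD_eq_default _ _ hk]; rfl

/-- Repetition of a word. -/
def rep : ℕ → List ℕ → List ℕ
  | 0, _ => []
  | n + 1, w => w ++ rep n w

/-- The root word of the commutator of two words. -/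
def commW (a b : List ℕ) : List ℕ := a ++ b ++ a.reverse ++ b.reverse

/-- The root words of the chosen elements of order five. -/
def fiveRoots (i : ℕ) : List ℕ := flat (fiveWords.getD i [])

/-- The root words of the chosen elements of order three. -/
def threeRoots (i : ℕ) : List ℕ := flat (threeWords.getD i [])

/-- The group of order 25 as a list. -/
def fiveList : List (List ℕ) :=
  (List.range 5).flatMap fun i => (List.range 5).map fun j => rep i (fiveRoots 0) ++ rep j (fiveRoots 1)

/-- The group of order 27 as a list. -/
def threeList : List (List ℕ) :=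
  (List.range 3).flatMap fun i => (List.range 3).flatMap fun j => (List.range 3).map fun l =>
    rep i (threeRoots 0) ++ rep j (threeRoots 1) ++ rep l (commW (threeRoots 0) (threeRoots 1))

theorem word_class : (∀ w ∈ fiveWords, InClass w ∧ wflag w = false) ∧
    (∀ w ∈ threeWords, InClass w ∧ wflag w = false) ∧
    InClass thirteenWord ∧ wflag thirteenWord = false := by decide +kernel

theorem five_rel : sameP (rep 5 (fiveRoots 0)) [] = true ∧
    sameP (fiveRoots 0 ++ fiveRoots 1) (fiveRoots 1 ++ fiveRoots 0) = true ∧
    sameP (fiveRoots 2 ++ fiveRoots 0) (fiveRoots 1 ++ fiveRoots 2) = true ∧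
    sameP (fiveRoots 2 ++ fiveRoots 1) (fiveRoots 0 ++ fiveRoots 2) = true := by decide +kernel

theorem five_mul : fiveList.all (fun u => [fiveRoots 0, fiveRoots 1].all fun w =>
    fiveList.any fun t => sameP (u ++ w) t) = true := by decide +kernel

theorem three_rel : sameP (rep 3 (threeRoots 0)) [] = true ∧ sameP (rep 3 (threeRoots 1)) [] = true ∧
    sameP (commW (threeRoots 0) (threeRoots 1) ++ threeRoots 0)
      (threeRoots 0 ++ commW (threeRoots 0) (threeRoots 1)) = true ∧
    sameP (commW (threeRoots 0) (threeRoots 1) ++ threeRoots 1)
      (threeRoots 1 ++ commW (threeRoots 0) (threeRoots 1)) = true ∧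
    sameAll (commW (threeRoots 0) (threeRoots 1)) [] = false ∧
    sameP (threeRoots 2 ++ threeRoots 0) ((threeRoots 0).reverse ++ threeRoots 2) = true ∧
    sameP (threeRoots 2 ++ threeRoots 1) ((threeRoots 1).reverse ++ threeRoots 2) = true := by
  decide +kernel

theorem thirteen_rel : sameP (rep 13 (flat thirteenWord)) [] = true ∧
    sameAll (flat thirteenWord) [] = false := by decide +kernel

end CfsgLib.TitsMultiplier
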