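import Cfsg.Agent.TitsInvolutions.Main
import Cfsg.Agent.TitsMultiplier.Data

/-!
A bit-mask model of the elements of `²F₄(2)` given as words in the root elements, and the class words lying in
the group together with their images in the largest abelian quotient.
-/

set_option autoImplicit false
set_option maxRecDepth 20000

namespace CfsgLib.TitsMultiplier

open Cfsg.Lie CfsgLib.Chevalley CfsgLib.TwistedLie CfsgLib.TwistedLie.F4 CfsgLib.TitsInvolutions
open scoped Matrix

local notation "S" => sysF4
local notation "K" => ZMod 2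

/-- Apply one root element to a bit vector. -/
def act (r v : ℕ) : ℕ :=
  (rootTable.getD r []).foldl (fun acc e => if v.testBit e.1 then acc ^^^ e.2 else acc) v

/-- Apply a word to a bit vector. -/
def actW (w : List ℕ) (v : ℕ) : ℕ := w.foldr act v

/-- Words in the root elements. -/
abbrev InRange (w : List ℕ) : Prop := ∀ r ∈ w, r < 48

theorem table_ok : ∀ r < 48, ∀ c < 52,
    act r (2 ^ c) = mask (evalCol chevF4 [(r, [(1, 0, 0)])] c) := by decide +kernel

theorem table_lt : ∀ r < 48, ∀ e ∈ rootTable.getD r [], e.2 < 2 ^ 52 := by decide +kernel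

theorem act_lt {r v : ℕ} (hr : r < 48) (hv : v < 2 ^ 52) : act r v < 2 ^ 52 := by
  have key : ∀ (L : List (ℕ × ℕ)) (acc : ℕ), (∀ e ∈ L, e.2 < 2 ^ 52) → acc < 2 ^ 52 →
      L.foldl (fun acc e => if v.testBit e.1 then acc ^^^ e.2 else acc) acc < 2 ^ 52 := by
    intro L
    induction L with
    | nil => intro acc _ h; simpa using h
    | cons e L ih =>
      intro acc hL hacc
      refine ih _ (fun x hx => hL x (List.mem_cons_of_mem _ hx)) ?_
      dsimp only
      split
      · exact Nat.xor_lt_two_pow hacc (hL e (List.mem_cons_self ..))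
      · exact hacc
  exact key _ v (table_lt r hr) hv

theorem actW_lt {w : List ℕ} (hw : InRange w) {v : ℕ} (hv : v < 2 ^ 52) : actW w v < 2 ^ 52 := by
  induction w with
  | nil => simpa [actW] using hv
  | cons r w ih =>
    exact act_lt (hw r (List.mem_cons_self ..)) (ih fun x hx => hw x (List.mem_cons_of_mem _ hx))

theorem act_zero (r : ℕ) : act r 0 = 0 := by
  have key : ∀ (L : List (ℕ × ℕ)),
      L.foldl (fun acc e => if (0 : ℕ).testBit e.1 then acc ^^^ e.2 else acc) 0 = 0 := by
    intro L
    induction L with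
    | nil => rfl
    | cons e L ih => simpa using ih
  exact key _

theorem act_xor (r a b : ℕ) : act r (a ^^^ b) = act r a ^^^ act r b := by
  have key : ∀ (L : List (ℕ × ℕ)) (x y : ℕ),
      L.foldl (fun acc e => if (a ^^^ b).testBit e.1 then acc ^^^ e.2 else acc) (x ^^^ y) =
        L.foldl (fun acc e => if a.testBit e.1 then acc ^^^ e.2 else acc) x ^^^
          L.foldl (fun acc e => if b.testBit e.1 then acc ^^^ e.2 else acc) y := by
    intro L
    induction L with
    | nil => intro x y; rfl
    | cons e L ih =>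
      intro x y
      simp only [List.foldl_cons]
      rw [← ih]
      congr 1
      rw [Nat.testBit_xor]
      cases a.testBit e.1 <;> cases b.testBit e.1 <;>
        simp [Nat.xor_assoc, Nat.xor_comm, Nat.xor_left_comm]
  exact key _ a b

theorem mulVec_basis_vec (F : Type*) [Field F] [CharP F 2] {r : ℕ} (hr : r < 48) {c : ℕ} (hc : c < 52) :
    (Sys.xG S F r (1 : F) : Matrix chevF4.Idx chevF4.Idx F) *ᵥ bv chevF4 F c =
      vecOf F (act r (2 ^ c)) := by
  rw [table_ok r hr c hc, ← vev_mask, ← vev_evalCol (Sys.wf S) (1 : F) 1 [(r, [(1, 0, 0)])]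
    (fun e he => by rw [List.mem_singleton.1 he]; exact hr)]
  congr 1
  simp [ChevalleyDatum.wordMat, Sys.xG_val, pev]

theorem mulVec_act {r : ℕ} (hr : r < 48) : ∀ v, v < 2 ^ 52 →
    (Sys.xG S K r (1 : K) : Matrix chevF4.Idx chevF4.Idx K) *ᵥ vecOf K v = vecOf K (act r v) := by
  suffices h : ∀ n, n ≤ 52 → ∀ v, v < 2 ^ n →
      (Sys.xG S K r (1 : K) : Matrix chevF4.Idx chevF4.Idx K) *ᵥ vecOf K v = vecOf K (act r v) from
    fun v hv => h 52 le_rfl v hv
  intro n
  induction n with
  | zero =>
    intro _ v hv
    obtain rfl : v = 0 := by simpa using hv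
    rw [act_zero, vecOf_zero, Matrix.mulVec_zero]
  | succ n ih =>
    intro hn v hv
    by_cases hb : v < 2 ^ n
    · exact ih (by omega) v hb
    · have hlt : v ^^^ 2 ^ n < 2 ^ n := by
        refine Nat.lt_pow_two_of_testBit _ fun i hi => ?_
        rw [Nat.testBit_xor, Nat.testBit_two_pow]
        rcases eq_or_lt_of_le hi with rfl | hi'
        · simp [Nat.testBit_of_two_pow_le_and_two_pow_add_one_gt (not_lt.1 hb) hv]
        · rw [Nat.testBit_lt_two_pow (hv.trans_le (Nat.pow_le_pow_right two_pos hi'))]
          simp [hi'.ne]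
      have e : v = (v ^^^ 2 ^ n) ^^^ 2 ^ n := by simp [Nat.xor_assoc]
      have hlow := ih (by omega) _ hlt
      generalize v ^^^ 2 ^ n = w at e hlow
      subst e
      rw [act_xor, vecOf_xor, vecOf_xor, Matrix.mulVec_add, hlow, vecOf_two_pow,
        mulVec_basis_vec K hr (show n < 52 by omega)]

theorem mulVec_word {w : List ℕ} (hw : InRange w) {v : ℕ} (hv : v < 2 ^ 52) :
    (el K w : Matrix chevF4.Idx chevF4.Idx K) *ᵥ vecOf K v = vecOf K (actW w v) := by
  induction w with
  | nil => simp [el_nil, actW]
  | cons r w ih =>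
    have hw' : InRange w := fun x hx => hw x (List.mem_cons_of_mem _ hx)
    rw [el_cons, Units.val_mul, ← Matrix.mulVec_mulVec, ih hw',
      mulVec_act (hw r (List.mem_cons_self ..)) _ (actW_lt hw' hv)]
    rfl

/-- Two words with the same action. -/
def sameAll (a b : List ℕ) : Bool :=
  (List.range 52).all fun c => actW a (2 ^ c) == actW b (2 ^ c)

theorem el_eq_of_sameAll {a b : List ℕ} (ha : InRange a) (hb : InRange b) (h : sameAll a b = true) :
    el K a = el K b := by
  simp only [sameAll, List.all_eq_true, List.mem_range, beq_iff_eq] at h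
  refine Units.ext (ext_bv chevF4 K fun c hc => ?_)
  have hc' : c < 52 := hc
  have hv : (2 : ℕ) ^ c < 2 ^ 52 := Nat.pow_lt_pow_right (by norm_num) hc'
  rw [← vecOf_two_pow K c, mulVec_word ha hv, mulVec_word hb hv, h c hc']

theorem el_ne_of_sameAll {a b : List ℕ} (ha : InRange a) (hb : InRange b) (h : sameAll a b = false) :
    el K a ≠ el K b := by
  intro he
  have : ¬ ∀ c < 52, actW a (2 ^ c) = actW b (2 ^ c) := by
    intro hall
    have : sameAll a b = true := by
      simp only [sameAll, List.all_eq_true, List.mem_range, beq_iff_eq]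
      exact hall
    rw [h] at this
    exact Bool.noConfusion this
  refine this fun c hc => ?_
  have hv : (2 : ℕ) ^ c < 2 ^ 52 := Nat.pow_lt_pow_right (by norm_num) hc
  refine vecOf_inj K (actW_lt ha hv) (actW_lt hb hv) ?_
  rw [← mulVec_word ha hv, ← mulVec_word hb hv, he]

theorem fmap_conj (i : Fin 2) {w : List ℕ} (hw : InRange w) :
    (nn i)⁻¹ * el K w * nn i = el K (w.map (fmap i)) := by
  induction w with
  | nil => simp [el_nil]
  | cons r w ih =>
    obtain ⟨h1, h2⟩ := fmap_spec i r (hw r (List.mem_cons_self ..))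
    have h := nL_conj_one (blkN_lt i) h1 (1 : K)
    change nn i * Sys.xG S K (fmap i r) 1 * (nn i)⁻¹ = Sys.xG S K (fmap i (fmap i r)) 1 at h
    rw [h2] at h
    rw [List.map_cons, el_cons, el_cons, ← ih fun x hx => hw x (List.mem_cons_of_mem _ hx), ← h]
    group

/-- The class word with given index. -/
def cw (k : ℕ) : List ℕ := (classWords.getD k ([], false)).1

/-- The flag of a class word. -/
def cflag (k : ℕ) : Bool := (classWords.getD k ([], false)).2

theorem cw_range : ∀ k < 24, InRange (cw k) := by decide +kernel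

theorem class_spec : ∀ k < 24, (k < 3 ∧ (cw k, cflag k) ∈
      ([([27, 25, 28], true), ([28, 30], false), ([33, 24], false)] : List (List ℕ × Bool))) ∨
    ((classParent.getD k (0, 0)).1 < k ∧
      cw k = (cw (classParent.getD k (0, 0)).1).map (fmap (classParent.getD k (0, 0)).2) ∧
      cflag k = cflag (classParent.getD k (0, 0)).1) := by decide +kernel

theorem class_mem : ∀ k < 24, el K (cw k) ∈ TitsInvolutions.G ∧ ab (el K (cw k)) = pw (cflag k) := by
  intro k
  induction k using Nat.strong_induction_on with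
  | _ k ih =>
    intro hk
    rcases class_spec k hk with ⟨-, h⟩ | ⟨hp, hw, hf⟩
    · simp only [List.mem_cons, Prod.mk.injEq, List.not_mem_nil, or_false] at h
      rcases h with ⟨hw, hf⟩ | ⟨hw, hf⟩ | ⟨hw, hf⟩ <;> rw [hw, hf]
      · exact ⟨W_mem_G 0 ([27, 25, 28], true) (by simp [W]), ab_W 0 ([27, 25, 28], true) (by simp [W])⟩
      · exact ⟨W_mem_G 0 ([28, 30], false) (by simp [W]), ab_W 0 ([28, 30], false) (by simp [W])⟩
      · exact ⟨W_mem_G 1 ([33, 24], false) (by simp [W]), ab_W 1 ([33, 24], false) (by simp [W])⟩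
    · obtain ⟨hG, hab⟩ := ih _ hp (by omega)
      rw [hw, hf, ← fmap_conj _ (cw_range _ (by omega)), ab_conj hG (nn_mem _)]
      exact ⟨mul_mem (mul_mem (inv_mem (nn_mem _)) hG) (nn_mem _), hab⟩

/-- The roots of a word of class indices. -/
def flat : List ℕ → List ℕ
  | [] => []
  | k :: w => cw k ++ flat w

/-- The flag of a word of class indices. -/
def wflag : List ℕ → Bool
  | [] => false
  | k :: w => xor (cflag k) (wflag w)

theorem flat_append (u w : List ℕ) : flat (u ++ w) = flat u ++ flat w := by
  induction u with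
  | nil => rfl
  | cons k u ih => simp [flat, ih, List.append_assoc]

/-- Words of class indices. -/
abbrev InClass (w : List ℕ) : Prop := ∀ k ∈ w, k < 24

theorem flat_range {w : List ℕ} (hw : InClass w) : InRange (flat w) := by
  induction w with
  | nil => simp [flat, InRange]
  | cons k w ih =>
    intro r hr
    rcases List.mem_append.1 hr with hr | hr
    · exact cw_range k (hw k (List.mem_cons_self ..)) r hr
    · exact ih (fun x hx => hw x (List.mem_cons_of_mem _ hx)) r hr

theorem word_mem {w : List ℕ} (hw : InClass w) :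
    el K (flat w) ∈ TitsInvolutions.G ∧ ab (el K (flat w)) = pw (wflag w) := by
  induction w with
  | nil => exact ⟨one_mem _, ab_one⟩
  | cons k w ih =>
    obtain ⟨h1, h2⟩ := class_mem k (hw k (List.mem_cons_self ..))
    obtain ⟨h3, h4⟩ := ih fun x hx => hw x (List.mem_cons_of_mem _ hx)
    show el K (cw k ++ flat w) ∈ _ ∧ ab (el K (cw k ++ flat w)) = pw (xor (cflag k) (wflag w))
    rw [el_append, ab_mul h1 h3, h2, h4, pw_xor]
    exact ⟨mul_mem h1 h3, rfl⟩

end CfsgLib.TitsMultiplier
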