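import Cfsg.Agent.TitsMultiplier.Model

/-!
All columns of a word at once: 52 bit vectors packed into lanes of 64 bits of one number, so that the equality
of two words is a single pass over the table for each root.
-/

set_option autoImplicit false
set_option maxRecDepth 20000

namespace CfsgLib.TitsMultiplier

open Cfsg.Lie CfsgLib.Chevalley CfsgLib.TwistedLie CfsgLib.TwistedLie.F4 CfsgLib.TitsInvolutions

/-- A list of vectors packed into lanes of 64 bits. -/
def pack : List ℕ → ℕ
  | [] => 0
  | x :: l => x + 2 ^ 64 * pack l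

/-- The lowest bit of each of `n` lanes. -/
def lanes (n : ℕ) : ℕ := pack (List.replicate n 1)

theorem testBit_lane {x : ℕ} (hx : x < 2 ^ 64) (y j : ℕ) :
    (x + 2 ^ 64 * y).testBit j = if j < 64 then x.testBit j else y.testBit (j - 64) := by
  rw [add_comm, Nat.two_pow_add_eq_or_of_lt hx, Nat.testBit_or, Nat.testBit_two_pow_mul]
  split_ifs with h
  · simp [show ¬ 64 ≤ j by omega]
  · rw [Nat.testBit_lt_two_pow (hx.trans_le (Nat.pow_le_pow_right two_pos (by omega : 64 ≤ j)))]
    simp [show 64 ≤ j by omega]

theorem lane_xor {x y : ℕ} (hx : x < 2 ^ 64) (hy : y < 2 ^ 64) (a b : ℕ) :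
    (x + 2 ^ 64 * a) ^^^ (y + 2 ^ 64 * b) = (x ^^^ y) + 2 ^ 64 * (a ^^^ b) := by
  refine Nat.eq_of_testBit_eq fun j => ?_
  rw [Nat.testBit_xor, testBit_lane hx, testBit_lane hy, testBit_lane (Nat.xor_lt_two_pow hx hy)]
  split_ifs <;> simp [Nat.testBit_xor]

theorem lane_pick {x : ℕ} (hx : x < 2 ^ 52) (a o : ℕ) {i : ℕ} (hi : i < 52)
    (ho : ∀ j, o.testBit j = true → 64 ∣ j) :
    ((x + 2 ^ 64 * a) >>> i) &&& (1 + 2 ^ 64 * o) =
      (x.testBit i).toNat + 2 ^ 64 * ((a >>> i) &&& o) := by
  have h64 : (1 : ℕ) < 2 ^ 64 := by norm_num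
  have hx' : x < 2 ^ 64 := hx.trans (by norm_num)
  have hb : (x.testBit i).toNat < 2 ^ 64 := lt_of_le_of_lt (Bool.toNat_le _) h64
  refine Nat.eq_of_testBit_eq fun j => ?_
  rw [Nat.testBit_and, Nat.testBit_shiftRight, testBit_lane h64, testBit_lane hb, testBit_lane hx']
  by_cases hj : j < 64
  · simp only [hj, if_true]
    rcases Nat.eq_zero_or_pos j with rfl | hj0
    · simp only [add_zero, show i < 64 by omega, if_true, Nat.testBit_zero]
      cases x.testBit i <;> simp
    · have h1 : (1 : ℕ).testBit j = false := Nat.testBit_lt_two_pow (Nat.one_lt_two_pow (by omega))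
      rw [h1, Bool.and_false, Nat.testBit_lt_two_pow
        (lt_of_le_of_lt (Bool.toNat_le _) (Nat.one_lt_two_pow (by omega)))]
  · simp only [hj, if_false, Nat.testBit_and, Nat.testBit_shiftRight]
    rw [if_neg (show ¬ i + j < 64 by omega), show i + (j - 64) = i + j - 64 by omega]

theorem lanes_testBit (n : ℕ) : ∀ j, (lanes n).testBit j = true → 64 ∣ j := by
  induction n with
  | zero => simp [lanes, pack]
  | succ n ih =>
    intro j hj
    simp only [lanes, List.replicate_succ, pack] at hj
    rw [testBit_lane (by norm_num)] at hj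
    split_ifs at hj with h
    · rcases Nat.eq_zero_or_pos j with rfl | hj0
      · exact dvd_zero _
      · simp [Nat.testBit_lt_two_pow (Nat.one_lt_two_pow (by omega : j ≠ 0))] at hj
    · have := ih _ hj
      omega

theorem pack_xor : ∀ (l : List (ℕ × ℕ)), (∀ p ∈ l, p.1 < 2 ^ 64 ∧ p.2 < 2 ^ 64) →
    pack (l.map fun p => p.1 ^^^ p.2) = pack (l.map Prod.fst) ^^^ pack (l.map Prod.snd)
  | [], _ => by simp [pack]
  | p :: l, h => by
    obtain ⟨h1, h2⟩ := h p (List.mem_cons_self ..)
    simp only [List.map_cons, pack]
    rw [lane_xor h1 h2, pack_xor l fun q hq => h q (List.mem_cons_of_mem _ hq)]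

theorem pack_step {i m : ℕ} (hi : i < 52) : ∀ (l : List ℕ), (∀ x ∈ l, x < 2 ^ 52) →
    ((pack l >>> i) &&& lanes l.length) * m = pack (l.map fun x => if x.testBit i then m else 0)
  | [], _ => by simp [pack, lanes]
  | x :: l, h => by
    simp only [List.length_cons, lanes, List.replicate_succ, pack, List.map_cons]
    rw [show pack (List.replicate l.length 1) = lanes l.length from rfl,
      lane_pick (h x (List.mem_cons_self ..)) _ _ hi (lanes_testBit l.length), add_mul, mul_assoc,
      pack_step hi l fun y hy => h y (List.mem_cons_of_mem _ hy)]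
    cases x.testBit i <;> simp

theorem pack_inj : ∀ {l l' : List ℕ}, l.length = l'.length → (∀ x ∈ l, x < 2 ^ 64) →
    (∀ x ∈ l', x < 2 ^ 64) → pack l = pack l' → l = l'
  | [], [], _, _, _, _ => rfl
  | [], _ :: _, h, _, _, _ => by simp at h
  | _ :: _, [], h, _, _, _ => by simp at h
  | x :: l, y :: l', hl, h, h', e => by
    have hx := h x (List.mem_cons_self ..)
    have hy := h' y (List.mem_cons_self ..)
    have h1 : x = y := by
      simp only [pack] at e
      omega
    subst h1
    rw [pack_inj (by simpa using hl) (fun z hz => h z (List.mem_cons_of_mem _ hz))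
      (fun z hz => h' z (List.mem_cons_of_mem _ hz)) (by simp only [pack] at e; omega)]

/-- Apply one root element to all lanes. -/
def actP (r V : ℕ) : ℕ :=
  (rootTable.getD r []).foldl (fun acc e => acc ^^^ (((V >>> e.1) &&& lanes 52) * e.2)) V

/-- Apply a word to all lanes. -/
def actWP (w : List ℕ) : ℕ := w.foldr actP (pack ((List.range 52).map fun c => 2 ^ c))

/-- Two words with the same action, decided on packed columns. -/
def sameP (a b : List ℕ) : Bool := Nat.beq (actWP a) (actWP b)

theorem table_src : ∀ r < 48, ∀ e ∈ rootTable.getD r [], e.1 < 52 := by decide +kernel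

theorem actP_pack {r : ℕ} (hr : r < 48) {l : List ℕ} (hl : l.length = 52) (h : ∀ x ∈ l, x < 2 ^ 52) :
    actP r (pack l) = pack (l.map (act r)) := by
  have h52 : (2 : ℕ) ^ 52 ≤ 2 ^ 64 := by norm_num
  have key : ∀ (L : List (ℕ × ℕ)), (∀ e ∈ L, e.1 < 52 ∧ e.2 < 2 ^ 52) → ∀ f : ℕ → ℕ,
      (∀ x ∈ l, f x < 2 ^ 52) →
      L.foldl (fun acc e => acc ^^^ (((pack l >>> e.1) &&& lanes 52) * e.2)) (pack (l.map f)) =
        pack (l.map fun x =>
          L.foldl (fun acc e => if x.testBit e.1 then acc ^^^ e.2 else acc) (f x)) := by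
    intro L
    induction L with
    | nil => intro _ f _; rfl
    | cons e L ih =>
      intro hL f hf
      obtain ⟨he1, he2⟩ := hL e (List.mem_cons_self ..)
      simp only [List.foldl_cons]
      rw [← hl, pack_step he1 l h]
      have hp : pack (l.map f) ^^^ pack (l.map fun x => if x.testBit e.1 then e.2 else 0) =
          pack (l.map fun x => if x.testBit e.1 then f x ^^^ e.2 else f x) := by
        have := pack_xor (l.map fun x => (f x, if x.testBit e.1 then e.2 else 0)) (by
          intro p hp
          simp only [List.mem_map] at hp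
          obtain ⟨x, hx, rfl⟩ := hp
          exact ⟨(hf x hx).trans_le h52, by dsimp only; split <;> omega⟩)
        simp only [List.map_map] at this
        rw [show l.map f = l.map (Prod.fst ∘ fun x => (f x, if x.testBit e.1 then e.2 else 0)) from rfl,
          show (l.map fun x => if x.testBit e.1 then e.2 else 0) =
            l.map (Prod.snd ∘ fun x => (f x, if x.testBit e.1 then e.2 else 0)) from rfl, ← this]
        congr 1
        refine List.map_congr_left fun x _ => ?_
        simp only [Function.comp_apply]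
        split <;> simp
      rw [hp, hl]
      refine ih (fun d hd => hL d (List.mem_cons_of_mem _ hd)) _ fun x hx => ?_
      split
      · exact Nat.xor_lt_two_pow (hf x hx) he2
      · exact hf x hx
  have := key (rootTable.getD r []) (fun e he => ⟨table_src r hr e he, table_lt r hr e he⟩) id h
  rw [List.map_id] at this
  exact this

theorem actWP_eq {w : List ℕ} (hw : InRange w) :
    actWP w = pack ((List.range 52).map fun c => actW w (2 ^ c)) := by
  induction w with
  | nil => rfl
  | cons r w ih =>
    have hw' : InRange w := fun x hx => hw x (List.mem_cons_of_mem _ hx)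
    show actP r (actWP w) = _
    rw [ih hw', actP_pack (hw r (List.mem_cons_self ..)) (by simp) fun x hx => by
      obtain ⟨c, hc, rfl⟩ := List.mem_map.1 hx
      exact actW_lt hw' (Nat.pow_lt_pow_right (by norm_num) (List.mem_range.1 hc)), List.map_map]
    rfl

theorem sameAll_of_sameP {a b : List ℕ} (ha : InRange a) (hb : InRange b) (h : sameP a b = true) :
    sameAll a b = true := by
  have hlt : ∀ {w : List ℕ}, InRange w →
      ∀ x ∈ (List.range 52).map (fun c => actW w (2 ^ c)), x < 2 ^ 64 := by
    intro w hw x hx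
    obtain ⟨c, hc, rfl⟩ := List.mem_map.1 hx
    exact (actW_lt hw (Nat.pow_lt_pow_right (by norm_num) (List.mem_range.1 hc))).trans (by norm_num)
  have he := Nat.eq_of_beq_eq_true h
  rw [actWP_eq ha, actWP_eq hb] at he
  have := pack_inj (by simp) (hlt ha) (hlt hb) he
  simp only [List.map_inj_left, List.mem_range] at this
  simpa [sameAll, List.all_eq_true] using this

theorem el_eq_of_sameP {a b : List ℕ} (ha : InRange a) (hb : InRange b) (h : sameP a b = true) :
    el (ZMod 2) a = el (ZMod 2) b :=
  el_eq_of_sameAll ha hb (sameAll_of_sameP ha hb h)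

end CfsgLib.TitsMultiplier
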