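import Cfsg.Agent.TitsMultiplier.Packed
import Cfsg.Agent.Schur.TwoCert
import Cfsg.Agent.TwistedLie.F4Tits
import Cfsg.Agent.Schur.OddSwap
import Cfsg.Agent.Schur.ThreeGroups

/-!
Subgroups of the Tits group given by words: orders and indices.
-/

set_option autoImplicit false
set_option maxRecDepth 20000

namespace CfsgLib.TitsMultiplier

open Cfsg.Lie CfsgLib.Chevalley CfsgLib.TwistedLie CfsgLib.TwistedLie.F4 CfsgLib.TitsInvolutions
open CfsgLib.Schur.TwoCert (evalW evalW_nil evalW_cons)
open scoped Matrix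

local notation "K" => ZMod 2

/-- The Tits group. -/
abbrev T : Subgroup ↥(twistedF4 K 1) := commutator ↥(twistedF4 K 1)

/-- The matrix of an element. -/
noncomputable def val : ↥T →* GL chevF4.Idx K := (twistedF4 K 1).subtype.comp T.subtype

theorem val_injective : Function.Injective val :=
  Subtype.val_injective.comp Subtype.val_injective

theorem card_T : Nat.card ↥T = 2 ^ 11 * 3 ^ 3 * 5 ^ 2 * 13 := F4.card_derived

noncomputable instance : Finite ↥(twistedF4 K 1) := inferInstance

theorem word_mem_group {w : List ℕ} (hw : InClass w) : el K (flat w) ∈ twistedF4 K 1 :=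
  (word_mem hw).1

theorem word_mem_commutator {w : List ℕ} (hw : InClass w) (hf : wflag w = false) :
    (⟨el K (flat w), word_mem_group hw⟩ : ↥(twistedF4 K 1)) ∈ T := by
  obtain ⟨h1, h2⟩ := word_mem hw
  rw [hf] at h2
  simp only [pw, Bool.false_eq_true, if_false, ab, dif_pos h1] at h2
  rw [T, ← Abelianization.ker_of]
  exact MonoidHom.mem_ker.2 h2

/-- The element of a word with even flag. -/
noncomputable def elT (w : List ℕ) (hw : InClass w) (hf : wflag w = false) : ↥T :=
  ⟨⟨el K (flat w), word_mem_group hw⟩, word_mem_commutator hw hf⟩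

theorem val_elT (w : List ℕ) (hw : InClass w) (hf : wflag w = false) :
    val (elT w hw hf) = el K (flat w) := rfl

theorem not_dvd_index {n p m : ℕ} (H : Subgroup ↥T) (hH : Nat.card H = n)
    (hm : 2 ^ 11 * 3 ^ 3 * 5 ^ 2 * 13 = n * m) (hp : ¬ p ∣ m) : ¬ p ∣ H.index := by
  intro h
  have h1 := H.card_mul_index
  rw [hH, card_T, hm] at h1
  have hn : n ≠ 0 := hH ▸ Nat.card_pos.ne'
  exact hp (mul_left_cancel₀ hn h1 ▸ h)

/-- All words of a list are root words. -/
theorem inRange_append {a b : List ℕ} (ha : InRange a) (hb : InRange b) : InRange (a ++ b) :=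
  fun r hr => (List.mem_append.1 hr).elim (ha r) (hb r)

theorem inRange_reverse {a : List ℕ} (ha : InRange a) : InRange a.reverse :=
  fun r hr => ha r (List.mem_reverse.1 hr)

section Closed

variable {X : Type*} [Group X] [Finite X] (ι : X →* GL chevF4.Idx K) (hι : Function.Injective ι)

include hι in
/-- A subgroup with a list of elements closed under multiplication by the generators. -/
theorem card_closure_eq {s : Set X} (Gs : List (List ℕ)) (L : List (List ℕ)) (v : ℕ)
    (hs : ∀ x ∈ s, ∃ w ∈ Gs, ι x = el K w) (hG : ∀ w ∈ Gs, InRange w ∧ ∃ x ∈ s, ι x = el K w)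
    (hL : ∀ w ∈ L, InRange w) (h1 : L.headD [] = [] ∧ L ≠ [])
    (hmem : ∀ w ∈ L, ∃ x ∈ Subgroup.closure s, ι x = el K w)
    (hmul : L.all (fun u => Gs.all fun w => L.any fun t => sameP (u ++ w) t) = true)
    (hv : v < 52) (hnd : (L.map fun w => actW w (2 ^ v)).Nodup) :
    Nat.card (Subgroup.closure s) = L.length := by
  let f : Fin L.length → Subgroup.closure s := fun k =>
    ⟨(hmem _ (List.getElem_mem k.2)).choose, (hmem _ (List.getElem_mem k.2)).choose_spec.1⟩
  have hf : ∀ k, ι (f k) = el K L[k.1] := fun k => (hmem _ (List.getElem_mem k.2)).choose_spec.2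
  have hv' : (2 : ℕ) ^ v < 2 ^ 52 := Nat.pow_lt_pow_right (by norm_num) hv
  have hinj : Function.Injective f := by
    intro i j hij
    have he : el K L[i.1] = el K L[j.1] := by rw [← hf, ← hf, hij]
    have h2 : actW L[i.1] (2 ^ v) = actW L[j.1] (2 ^ v) := by
      refine vecOf_inj K (actW_lt (hL _ (List.getElem_mem i.2)) hv')
        (actW_lt (hL _ (List.getElem_mem j.2)) hv') ?_
      rw [← mulVec_word (hL _ (List.getElem_mem i.2)) hv',
        ← mulVec_word (hL _ (List.getElem_mem j.2)) hv', he]
    have h3 : (L.map fun w => actW w (2 ^ v))[i.1]'(by simp) =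
        (L.map fun w => actW w (2 ^ v))[j.1]'(by simp) := by simpa using h2
    exact Fin.ext ((hnd.getElem_inj_iff).1 h3)
  have hsurj : Function.Surjective f := by
    let C : Set X := {x | ∃ t ∈ L, ι x = el K t}
    have hstep : ∀ x ∈ C, ∀ y ∈ s, x * y ∈ C := by
      rintro x ⟨u, hu, hxu⟩ y hy
      obtain ⟨w, hw, hyw⟩ := hs y hy
      simp only [List.all_eq_true, List.any_eq_true] at hmul
      obtain ⟨t, ht, he⟩ := hmul u hu w hw
      refine ⟨t, ht, ?_⟩
      rw [map_mul, hxu, hyw, ← el_append]
      exact el_eq_of_sameP (inRange_append (hL u hu) (hG w hw).1) (hL t ht) he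
    have hall : ∀ y ∈ Subgroup.closure s, ∀ x ∈ C, x * y ∈ C := by
      intro y hy
      induction hy using Subgroup.closure_induction with
      | mem y hy => exact fun x hx => hstep x hx y hy
      | one => exact fun x hx => by rwa [mul_one]
      | mul a b _ _ ha hb => exact fun x hx => by rw [← mul_assoc]; exact hb _ (ha x hx)
      | inv a _ ha =>
        intro x hx
        have hp : ∀ n : ℕ, x * a ^ n ∈ C := fun n => by
          induction n with
          | zero => rwa [pow_zero, mul_one]
          | succ n ih => rw [pow_succ, ← mul_assoc]; exact ha _ ih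
        have ho := orderOf_pos a
        rw [show a⁻¹ = a ^ (orderOf a - 1) from inv_eq_of_mul_eq_one_right (by
          rw [← pow_succ', show orderOf a - 1 + 1 = orderOf a by omega, pow_orderOf_eq_one])]
        exact hp _
    have h0 : (1 : X) ∈ C := by
      obtain ⟨hh, hne⟩ := h1
      obtain ⟨a, l, rfl⟩ := List.exists_cons_of_ne_nil hne
      simp only [List.headD_cons] at hh
      subst hh
      exact ⟨[], List.mem_cons_self .., by rw [map_one, el_nil]⟩
    rintro ⟨y, hy⟩
    obtain ⟨t, ht, hyt⟩ := hall y hy 1 h0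
    rw [one_mul] at hyt
    obtain ⟨k, hk, hkt⟩ := List.getElem_of_mem ht
    exact ⟨⟨k, hk⟩, Subtype.ext (hι (by rw [hf]; simp only [hkt, hyt]))⟩
  rw [← Nat.card_fin L.length]
  exact (Nat.card_congr (Equiv.ofBijective f ⟨hinj, hsurj⟩)).symm

end Closed

section Heisenberg

open scoped commutatorElement

variable {X : Type*} [Group X]

/-- Two elements of order three whose commutator commutes with both generate a group of order at most 27. -/
theorem card_closure_le {a b : X} (ha : a ^ 3 = 1) (hb : b ^ 3 = 1) (hca : Commute ⁅a, b⁆ a)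
    (hcb : Commute ⁅a, b⁆ b) : Nat.card (Subgroup.closure ({a, b} : Set X)) ≤ 27 := by
  have hc : ⁅a, b⁆ ^ 3 = 1 := CfsgLib.Schur.ThreeGroups.commutator_pow_three
    (by rw [ha]; exact one_mem _) hca hcb
  set c := ⁅a, b⁆ with hcdef
  have hc2 : c⁻¹ = c ^ 2 := inv_eq_of_mul_eq_one_right (by rw [← pow_succ', hc])
  have hba : b * a = a * b * c ^ 2 := by
    rw [← ((hca.mul_right hcb).pow_left 2).eq, ← hc2, hcdef, commutatorElement_def]
    group
  have hjs : ∀ j : ℕ, b ^ j * a = a * b ^ j * c ^ (2 * j) := by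
    intro j
    induction j with
    | zero => simp
    | succ j ih =>
      rw [pow_succ, mul_assoc, hba, ← mul_assoc, ← mul_assoc, ih, mul_assoc (a * b ^ j),
        (hcb.pow_left _).eq, ← mul_assoc, mul_assoc _ (c ^ (2 * j)), ← pow_add, mul_assoc a,
        ← pow_succ, show 2 * (j + 1) = 2 * j + 2 by ring]
  let f : Fin 3 × Fin 3 × Fin 3 → X := fun p => a ^ (p.1 : ℕ) * b ^ (p.2.1 : ℕ) * c ^ (p.2.2 : ℕ)
  have hmem : ∀ i j l : ℕ, a ^ i * b ^ j * c ^ l ∈ Set.range f := fun i j l =>
    ⟨(⟨i % 3, Nat.mod_lt _ (by norm_num)⟩, ⟨j % 3, Nat.mod_lt _ (by norm_num)⟩,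
      ⟨l % 3, Nat.mod_lt _ (by norm_num)⟩), by
      rw [pow_eq_pow_mod i ha, pow_eq_pow_mod j hb, pow_eq_pow_mod l hc]⟩
  have hstep : ∀ x ∈ Set.range f, ∀ y ∈ ({a, b} : Set X), x * y ∈ Set.range f := by
    rintro _ ⟨⟨i, j, l⟩, rfl⟩ y (rfl | rfl) <;> dsimp only [f]
    · rw [mul_assoc _ (c ^ (l : ℕ)), (hca.pow_left _).eq, ← mul_assoc, mul_assoc (y ^ (i : ℕ)), hjs,
        ← mul_assoc, ← mul_assoc, ← pow_succ, mul_assoc, ← pow_add]
      exact hmem _ _ _
    · rw [mul_assoc _ (c ^ (l : ℕ)), (hcb.pow_left _).eq, ← mul_assoc, mul_assoc (a ^ (i : ℕ)),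
        ← pow_succ]
      exact hmem _ _ _
  have hsub : ((Subgroup.closure ({a, b} : Set X)) : Set X) ⊆ Set.range f := by
    intro x hx
    induction hx using Subgroup.closure_induction_right with
    | one => simpa using hmem 0 0 0
    | mul_right x hx y hy ih => exact hstep _ ih y hy
    | mul_inv_cancel x hx y hy ih =>
      have hy3 : y ^ 3 = 1 := by rcases hy with rfl | rfl <;> assumption
      rw [show y⁻¹ = y * y from inv_eq_of_mul_eq_one_right (by rw [← mul_assoc, ← hy3, pow_three, mul_assoc]),
        ← mul_assoc]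
      exact hstep _ (hstep _ ih y hy) y hy
  calc Nat.card (Subgroup.closure ({a, b} : Set X))
      = ((Subgroup.closure ({a, b} : Set X)) : Set X).ncard := Nat.card_coe_set_eq _
    _ ≤ (Set.range f).ncard := Set.ncard_le_ncard hsub (Set.finite_range f)
    _ ≤ Nat.card (Fin 3 × Fin 3 × Fin 3) := Finite.card_range_le f
    _ = 27 := by simp [Nat.card_prod]

end Heisenberg

section LowerBound

variable {X : Type*} [Group X] [Finite X]

/-- A subgroup containing elements given by words with different images has at least as many elements. -/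
theorem le_card (ι : X →* GL chevF4.Idx K) (H : Subgroup X) (L : List (List ℕ)) (v : ℕ)
    (hL : ∀ w ∈ L, InRange w) (hmem : ∀ w ∈ L, ∃ x ∈ H, ι x = el K w) (hv : v < 52)
    (hnd : (L.map fun w => actW w (2 ^ v)).Nodup) : L.length ≤ Nat.card H := by
  choose f hf hf' using fun k : Fin L.length => hmem _ (List.getElem_mem k.2)
  have hv' : (2 : ℕ) ^ v < 2 ^ 52 := Nat.pow_lt_pow_right (by norm_num) hv
  have hinj : Function.Injective fun k => (⟨f k, hf k⟩ : H) := by
    intro i j hij
    have he : el K L[i.1] = el K L[j.1] := by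
      rw [← hf', ← hf', show f i = f j from congrArg Subtype.val hij]
    have h2 : actW L[i.1] (2 ^ v) = actW L[j.1] (2 ^ v) := by
      refine vecOf_inj K (actW_lt (hL _ (List.getElem_mem i.2)) hv')
        (actW_lt (hL _ (List.getElem_mem j.2)) hv') ?_
      rw [← mulVec_word (hL _ (List.getElem_mem i.2)) hv',
        ← mulVec_word (hL _ (List.getElem_mem j.2)) hv', he]
    have h3 : (L.map fun w => actW w (2 ^ v))[i.1]'(by simp) =
        (L.map fun w => actW w (2 ^ v))[j.1]'(by simp) := by simpa using h2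
    exact Fin.ext ((hnd.getElem_inj_iff).1 h3)
  simpa using Nat.card_le_card_of_injective _ hinj

end LowerBound

section Chain

variable {X : Type*} [Group X] [Finite X] (ι : X →* GL chevF4.Idx K)

/-- A generator moving a vector out of a set fixed by the previous generators. -/
def sepB (gs : List (List ℕ)) (Os : List (List ℕ)) (k : ℕ) : Bool :=
  let O := Os.getD k []
  ((List.range k).all fun i => O.all fun v => O.contains (actW (flat (gs.getD i [])) v)) &&
    (O.all fun v => decide (v < 2 ^ 52)) && !O.isEmpty &&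
    !O.contains (actW (flat (gs.getD k [])) (O.headD 0))

theorem not_mem_closure (gs : List (List ℕ)) (Os : List (List ℕ)) (g : ℕ → X) (k : ℕ)
    (hgr : ∀ i, InRange (flat (gs.getD i []))) (hg : ∀ i ≤ k, ι (g i) = el K (flat (gs.getD i [])))
    (h : sepB gs Os k = true) : g k ∉ Subgroup.closure (g '' {i | i < k}) := by
  simp only [sepB, Bool.and_eq_true, List.all_eq_true, List.mem_range, List.contains_iff_mem,
    decide_eq_true_eq, Bool.not_eq_true', List.isEmpty_eq_false_iff] at h
  obtain ⟨⟨⟨h1, hlt⟩, hne⟩, hnot⟩ := h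
  set O := Os.getD k [] with hO
  intro hmem
  have hstab : ∀ x ∈ Subgroup.closure (g '' {i | i < k}), ∀ v ∈ O, ∃ u ∈ O,
      (ι x : Matrix chevF4.Idx chevF4.Idx K) *ᵥ vecOf K v = vecOf K u := by
    intro x hx
    induction hx using Subgroup.closure_induction with
    | mem x hx =>
      obtain ⟨i, hi, rfl⟩ := hx
      intro v hv
      refine ⟨_, h1 i hi v hv, ?_⟩
      rw [hg i (le_of_lt hi), mulVec_word (hgr i) (hlt v hv)]
    | one => exact fun v hv => ⟨v, hv, by simp⟩
    | mul a b _ _ ha hb =>
      intro v hv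
      obtain ⟨u, hu, e⟩ := hb v hv
      obtain ⟨u', hu', e'⟩ := ha u hu
      exact ⟨u', hu', by rw [map_mul, Units.val_mul, ← Matrix.mulVec_mulVec, e, e']⟩
    | inv a _ ha =>
      have hp : ∀ n : ℕ, ∀ v ∈ O, ∃ u ∈ O,
          (ι (a ^ n) : Matrix chevF4.Idx chevF4.Idx K) *ᵥ vecOf K v = vecOf K u := fun n => by
        induction n with
        | zero => exact fun v hv => ⟨v, hv, by simp⟩
        | succ n ih =>
          intro v hv
          obtain ⟨u, hu, e⟩ := ha v hv
          obtain ⟨u', hu', e'⟩ := ih u hu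
          exact ⟨u', hu', by rw [pow_succ, map_mul, Units.val_mul, ← Matrix.mulVec_mulVec, e, e']⟩
      have ho := orderOf_pos a
      rw [show a⁻¹ = a ^ (orderOf a - 1) from inv_eq_of_mul_eq_one_right (by
        rw [← pow_succ', show orderOf a - 1 + 1 = orderOf a by omega, pow_orderOf_eq_one])]
      exact hp _
  obtain ⟨a, l, hOl⟩ := List.exists_cons_of_ne_nil hne
  have ha : a ∈ O := by rw [hOl]; exact List.mem_cons_self ..
  obtain ⟨u, hu, e⟩ := hstab _ hmem a ha
  rw [hg k le_rfl, mulVec_word (hgr k) (hlt a ha)] at e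
  have := vecOf_inj K (actW_lt (hgr k) (hlt a ha)) (hlt u hu) e
  have : (List.contains O (actW (flat (gs.getD k [])) (O.headD 0))) = true := by
    rw [List.contains_iff_mem, hOl, List.headD_cons, this, ← hOl]; exact hu
  simp_all

/-- The order of a subgroup given by a certificate with separating sets. -/
theorem card_closure_pow (c : CfsgLib.Schur.TwoCert.Cert) (hsh : CfsgLib.Schur.TwoCert.shapeOK c = true)
    (gs : List (List ℕ)) (Os : List (List ℕ)) (g : ℕ → X)
    (hgr : ∀ i, InRange (flat (gs.getD i []))) (hg : ∀ i < c.n, ι (g i) = el K (flat (gs.getD i [])))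
    (hrel : ∀ r < c.picks.length, evalW g (c.rules.getD r ([], [])).1 = evalW g (c.rules.getD r ([], [])).2)
    (hsep : ∀ k < c.n, sepB gs Os k = true) :
    ∀ k ≤ c.n, Nat.card (Subgroup.closure (g '' {i | i < k})) = 2 ^ k := by
  intro k
  induction k with
  | zero => intro _; simp
  | succ k ih =>
    intro hk
    have hle : Subgroup.closure (g '' {i | i < k}) ≤ Subgroup.closure (g '' {i | i < k + 1}) :=
      Subgroup.closure_mono (Set.image_mono fun i hi => Nat.lt_succ_of_lt hi)
    have hne := not_mem_closure ι gs Os g k hgr (fun i hi => hg i (by omega)) (hsep k (by omega))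
    have hgk : g k ∈ Subgroup.closure (g '' {i | i < k + 1}) :=
      Subgroup.subset_closure ⟨k, Nat.lt_succ_self k, rfl⟩
    have hdvd := Subgroup.card_dvd_of_le hle
    have hub : Nat.card (Subgroup.closure (g '' {i | i < k + 1})) ≤ 2 ^ (k + 1) := by
      rw [show Nat.card (Subgroup.closure (g '' {i | i < k + 1})) =
        ((Subgroup.closure (g '' {i | i < k + 1}) : Subgroup X) : Set X).ncard from
        Nat.card_coe_set_eq _]
      exact CfsgLib.Schur.TwoCert.ncard_closure_le hsh g hrel (k + 1) hk
    have hlt : Nat.card (Subgroup.closure (g '' {i | i < k})) ≠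
        Nat.card (Subgroup.closure (g '' {i | i < k + 1})) := fun he =>
      hne ((Subgroup.eq_of_le_of_card_ge hle he.ge).symm ▸ hgk)
    rw [ih (by omega)] at hdvd hlt
    obtain ⟨d, hd⟩ := hdvd
    have hd0 : d ≠ 0 := fun h0 => by
      rw [h0, mul_zero] at hd
      exact Nat.card_pos.ne' hd
    have hd1 : d ≠ 1 := fun h1 => by rw [h1, mul_one] at hd; exact hlt hd.symm
    rw [hd, pow_succ] at hub ⊢
    have := Nat.le_of_mul_le_mul_left hub (by positivity)
    rw [show d = 2 by omega]

end Chain

end CfsgLib.TitsMultiplier
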